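import Cfsg.Agent.H6.Chain
import Cfsg.Prelude.Def_Spor_He

set_option autoImplicit false
set_option maxRecDepth 100000

namespace Cfsg.H6.He

def L : List (FreeGroup Spor.He.Gen) := [1, Spor.He.a, Spor.He.b, Spor.He.c, Spor.He.d, Spor.He.e, Spor.He.f, Spor.He.g]

def idx : Spor.He.Gen → ℕ
  | .a => 1
  | .b => 2
  | .c => 3
  | .d => 4
  | .e => 5
  | .f => 6
  | .g => 7

def R : List (List ℕ) := [[1,2,1,2,1,2,1,2], [1,3,1,3], [1,4,1,4], [1,5,1,5], [1,6,1,6], [1,7,1,7], [2,3,2,3,2,3], [2,4,2,4], [2,5,2,5], [2,6,2,6], [2,7,2,7], [3,4,3,4,3,4,3,4,3,4,3,4,3,4,3,4,3,4,3,4], [3,5,3,5], [3,6,3,6], [3,7,3,7], [4,5,4,5,4,5], [4,6,4,6,4,6], [4,7,4,7,4,7], [5,6,5,6], [5,7,5,7], [6,7,6,7,6,7,6,7], [5,7,6,7,6], [5,3,2,1,3,2,1,3,2,1], [1,4,3,4,3,4,3,4,3,4,3], [3,4,6,7,3,4,6,7,3,4,6,7,3,4,6,7]]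

def X : List (List ℕ) := [[1], [2], [3], [4], [5], [6], [7]]

theorem hP : presOK Spor.He.edges Spor.He.extra L idx 506097522914230528 R = true := by decide +kernel

theorem hidx : ∀ a, L.getD (idx a) 1 = FreeGroup.of a := by intro a; cases a <;> rfl

/-- The letters of the presented group. -/
def ev : ℕ → Spor.He := evP Spor.He.edges Spor.He.extra L

theorem hev : Good ev 506097522914230528 := presOK_good hP

theorem hR : Rels ev R := presOK_rels hP hidx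

theorem hX : gen ev X = ⊤ := gen_eq_top hidx (by intro a; cases a <;> decide)

theorem lift {G : Type*} [Group G] {ev' : ℕ → G} (h : Good ev' 506097522914230528) (h' : Rels ev' R) :
    ∃ φ : Spor.He →* G, ∀ l, φ (ev l) = ev' l := presOK_lift hP h h'

end Cfsg.H6.He
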