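import Cfsg.Agent.H6.He.Tab0

set_option autoImplicit false
set_option maxRecDepth 100000

namespace Cfsg.H6.He

theorem p0 : allR (ptU img) 0 960 = true := by decide +kernel

theorem p1 : allR (ptU img) 960 960 = true := by decide +kernel

theorem p2 : allR (ptU img) 1920 138 = true := by decide +kernel

theorem q0_0 : allR (ivl img Ws 1 137) 1 136 = true := by decide +kernel

theorem q1_0 : allR (ivl img Ws 137 273) 137 136 = true := by decide +kernel

theorem q2_0 : allR (ivl img Ws 273 698) 273 425 = true := by decide +kernel

theorem q3_0 : allR (ivl img Ws 698 2058) 698 1360 = true := by decide +kernel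

end Cfsg.H6.He
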