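import Cfsg.Agent.H6.He.Pres
import Cfsg.Agent.H6.He.Chk0

set_option autoImplicit false
set_option maxRecDepth 100000

namespace Cfsg.H6.He

theorem ptOK : PtOK img 2058 LS EQS := ptOK_of_chk fun p h1 h2 => by
  rw [← ptU_eq]
  exact (range_join (allR_range p0 (by norm_num : 0 + 960 = 960)) (range_join (allR_range p1 (by norm_num : 960 + 960 = 1920)) (allR_range p2 (by norm_num : 1920 + 138 = 2058)))) p h1 h2

theorem hrep : repOK 8 506097522914230528 LS EQS D He.R = true := by decide +kernel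

theorem rep : Good (evR img 2058 8) 506097522914230528 ∧ Rels (evR img 2058 8) He.R ∧
    IsAct (MonoidHom.id _) (evR img 2058 8) img 2058 8 := rep_sound ptOK hrep

theorem iv0 {G : Type*} [Group G] {φ : G →* Equiv.Perm ℕ} {ev : ℕ → G} (h : IsAct φ ev img 2058 8) :
    orb φ (gen ev Ws) 1 = Set.Ico 1 137 :=
  ivl_sound h (by decide +kernel) (allR_range q0_0 (by norm_num : 1 + 136 = 137))

theorem iv1 {G : Type*} [Group G] {φ : G →* Equiv.Perm ℕ} {ev : ℕ → G} (h : IsAct φ ev img 2058 8) :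
    orb φ (gen ev Ws) 137 = Set.Ico 137 273 :=
  ivl_sound h (by decide +kernel) (allR_range q1_0 (by norm_num : 137 + 136 = 273))

theorem iv2 {G : Type*} [Group G] {φ : G →* Equiv.Perm ℕ} {ev : ℕ → G} (h : IsAct φ ev img 2058 8) :
    orb φ (gen ev Ws) 273 = Set.Ico 273 698 :=
  ivl_sound h (by decide +kernel) (allR_range q2_0 (by norm_num : 273 + 425 = 698))

theorem iv3 {G : Type*} [Group G] {φ : G →* Equiv.Perm ℕ} {ev : ℕ → G} (h : IsAct φ ev img 2058 8) :
    orb φ (gen ev Ws) 698 = Set.Ico 698 2058 :=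
  ivl_sound h (by decide +kernel) (allR_range q3_0 (by norm_num : 698 + 1360 = 2058))


end Cfsg.H6.He
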